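import Cfsg.Agent.Lib.Helper33.Breadth.Defs

/-!
# S3777 "BREADTH", package [KER]
-/

set_option autoImplicit false

namespace Cfsg.Agent.Lib.Helper77.Breadth

universe u

/-- **[KER]** a subgroup of index `p` of a finite `p`-group is the zero set of an additive
character (no package hypothesis needed). -/
theorem pkgKer : Cfsg.Agent.Lib.Helper33.Breadth.PkgKer.{u} := by
  intro G _ _ p _ hG C hC
  have hp : p.Prime := Fact.out
  have hCn : C.Normal := by
    apply Subgroup.normal_of_index_eq_minFac_card
    obtain ⟨n, hn⟩ := IsPGroup.iff_card.mp hG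
    have hn0 : n ≠ 0 := by
      rintro rfl
      have h1 : Nat.card G = 1 := by simpa using hn
      have h2 := C.card_mul_index
      rw [hC, h1] at h2
      have : p ∣ 1 := Dvd.intro_left _ h2
      exact hp.one_lt.ne' (Nat.dvd_one.mp this)
    rw [hC, hn, hp.pow_minFac hn0]
  have hcard : Nat.card (G ⧸ C) = p := hC
  have hcard' : Nat.card (Multiplicative (ZMod p)) = p := by
    rw [Nat.card_congr Multiplicative.toAdd, Nat.card_zmod]
  let e : G ⧸ C ≃* Multiplicative (ZMod p) := mulEquivOfPrimeCardEq hcard hcard'
  refine ⟨fun x => Multiplicative.toAdd (e (QuotientGroup.mk x)), ?_, ?_⟩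
  · intro x z
    show Multiplicative.toAdd (e (QuotientGroup.mk (x * z))) = _
    rw [QuotientGroup.mk_mul, map_mul]; rfl
  · intro x
    show Multiplicative.toAdd (e (QuotientGroup.mk x)) = 0 ↔ x ∈ C
    rw [← QuotientGroup.eq_one_iff (N := C) x]
    constructor
    · intro h
      have h1 : e (QuotientGroup.mk x) = 1 := h
      exact (MulEquiv.map_eq_one_iff e).mp h1
    · intro h
      rw [h, map_one]; rfl

end Cfsg.Agent.Lib.Helper77.Breadth
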