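import Cfsg.Agent.Lib.Helper33.Breadth.Defs

/-!
# S3777 "BREADTH", package [SEP]
-/

set_option autoImplicit false

namespace Cfsg.Agent.Lib.Helper77.Breadth

universe u

/-- a nonzero vector of a vector space over `ZMod p` is detected by an additive form. -/
theorem exists_form_ne_zero (p : ℕ) [Fact p.Prime] {V : Type u} [AddCommGroup V]
    [Module (ZMod p) V] (v : V) (hv : v ≠ 0) :
    ∃ μ : V → ZMod p, (∀ a b, μ (a + b) = μ a + μ b) ∧ μ v ≠ 0 := by
  have hex : ∃ f : V →ₗ[ZMod p] ZMod p, f v ≠ 0 := by
    by_contra hcon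
    push Not at hcon
    exact hv ((Module.forall_dual_apply_eq_zero_iff (ZMod p) v).mp hcon)
  obtain ⟨f, hf⟩ := hex
  exact ⟨fun a => f a, fun a b => map_add f a b, hf⟩

/-- **[SEP]** a nontrivial element of an elementary abelian `p`-group is detected by an additive
character. -/
theorem pkgSep : Cfsg.Agent.Lib.Helper33.Breadth.PkgSep.{u} := by
  intro A _ _ p _ hexp a0 ha0
  letI : Module (ZMod p) (Additive A) := AddCommGroup.zmodModule (n := p) (by
    intro x
    have h := hexp (Additive.toMul x)
    exact congrArg Additive.ofMul h)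
  have hne : Additive.ofMul a0 ≠ (0 : Additive A) := by
    intro h
    exact ha0 (congrArg Additive.toMul h)
  obtain ⟨μ, hμ, hμ0⟩ := exists_form_ne_zero p (Additive.ofMul a0) hne
  exact ⟨fun a => μ (Additive.ofMul a), fun a b => hμ (Additive.ofMul a) (Additive.ofMul b), hμ0⟩

end Cfsg.Agent.Lib.Helper77.Breadth
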