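import Cfsg.Agent.Lib.Helper33.Breadth.Defs

/-!
# S3777 "BREADTH", package [KERIDX]
-/

set_option autoImplicit false

namespace Cfsg.Agent.Lib.Helper77.Breadth

universe u

/-- **[KERIDX]** the zero set of a nonzero additive character is a normal subgroup of index `p`. -/
theorem pkgKerIdx : Cfsg.Agent.Lib.Helper33.Breadth.PkgKerIdx.{u} := by
  intro G _ _ p _ χ hadd ⟨x₀, hx₀⟩
  have hp : p.Prime := Fact.out
  let φ : G →* Multiplicative (ZMod p) :=
    { toFun := fun x => Multiplicative.ofAdd (χ x)
      map_one' := by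
        have h := hadd 1 1
        rw [one_mul] at h
        have h0 : χ 1 = 0 := by simpa using h
        rw [h0]; rfl
      map_mul' := fun x z => by rw [hadd x z]; rfl }
  have hφ : ∀ x, φ x = Multiplicative.ofAdd (χ x) := fun x => rfl
  refine ⟨φ.ker, inferInstance, ?_, ?_⟩
  · rw [Subgroup.index_ker]
    have hdvd : Nat.card φ.range ∣ p := by
      have h := Subgroup.card_subgroup_dvd_card φ.range
      rwa [Nat.card_congr Multiplicative.toAdd, Nat.card_zmod] at h
    rcases (Nat.dvd_prime hp).mp hdvd with h | h
    · exfalso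
      have hbot : φ.range = ⊥ := Subgroup.eq_bot_of_card_eq _ h
      have hmem : φ x₀ ∈ φ.range := ⟨x₀, rfl⟩
      rw [hbot, Subgroup.mem_bot, hφ] at hmem
      exact hx₀ (by simpa using hmem)
    · exact h
  · intro x
    rw [MonoidHom.mem_ker, hφ]
    constructor
    · intro h; simpa using h
    · intro h; rw [h]; rfl

end Cfsg.Agent.Lib.Helper77.Breadth
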